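import Cfsg.Agent.H125.Hall.Defs
import Cfsg.Agent.H454.FinePsp

/-!
# `ALS` for `PSp_2n(q)`, `q` odd (helper753, S2223, task 4225)

* `le_of_bd`, `le_of_ls` : the degree bounds `Bd` and `LS` apply to `PR`;
* `als_psp`.
-/

set_option autoImplicit false

namespace Cfsg.Agent.H753.Hall

open Cfsg.Agent.H125.Hall

/-! ### degree bounds -/

section bounds

variable {T : Type} [Group T] [IsSimpleGroup T]

/-- the kernel of a non-trivial representation is central -/
theorem ker_le {P : Type} [Group P] {π : P →* T} (h1 : Function.Surjective π) (h2 : π.ker ≤ Subgroup.center P)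
    (h3 : commutator P = ⊤) {M : Type} [Group M] {ρ : P →* M} (h4 : ρ ≠ 1) : ρ.ker ≤ π.ker := by
  have hn : (ρ.ker.map π).Normal := Subgroup.Normal.map inferInstance π h1
  rcases hn.eq_bot_or_eq_top with h | h
  · rwa [Subgroup.map_eq_bot_iff] at h
  · exfalso
    apply h4
    have h5 : commutator P ≤ ρ.ker := by
      rw [commutator_def, Subgroup.commutator_le]
      intro a _ b _
      obtain ⟨x, hx, hxa⟩ : π a ∈ ρ.ker.map π := by rw [h]; trivial
      obtain ⟨y, hy, hyb⟩ : π b ∈ ρ.ker.map π := by rw [h]; trivial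
      have e1 : ∀ z, a * x⁻¹ * z = z * (a * x⁻¹) := fun z => by
        have h6 : a * x⁻¹ ∈ π.ker := by rw [MonoidHom.mem_ker, map_mul, map_inv, hxa, mul_inv_cancel]
        exact ((Subgroup.mem_center_iff.1 (h2 h6)) z).symm
      replace hx : ρ x = 1 := hx
      rw [MonoidHom.mem_ker]
      have e2 : ρ a * ρ b = ρ b * ρ a := by
        have e3 : a * b = (a * x⁻¹) * x * b := by group
        have e4 : ρ a * ρ b = ρ (a * x⁻¹) * ρ b := by
          rw [← map_mul, e3, map_mul, map_mul, hx, mul_one]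
        have e5 : ρ b * ρ a = ρ b * ρ (a * x⁻¹) := by
          rw [map_mul, map_inv, hx, inv_one, mul_one]
        rw [e4, e5, ← map_mul, ← map_mul, e1]
      rw [map_commutatorElement]
      exact commutatorElement_eq_one_iff_mul_comm.2 e2
    rw [h3] at h5
    exact MonoidHom.ext fun x => MonoidHom.mem_ker.1 (h5 (Subgroup.mem_top x))

theorem le_of_bd {m r d : ℕ} (hrT : r ∣ Nat.card T) (h : PR m T) {A : Type} [CommGroup A]
    (hM : Cfsg.HasSchurMultiplier T A) (hA : (Nat.card A).Coprime r)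
    (hB : ∀ (F : Type) [Field F], (r : F) ≠ 0 → Cfsg.Agent.H912.Bd.Bd F r d T) : d ≤ m := by
  obtain ⟨k, _, P, _, _, π, ρ, h1, h2, h3, h4, h5⟩ := h
  refine hB k ?_ m ⟨P, inferInstance, π, ρ, h1, ?_, Cfsg.Agent.H698.ker_coprime hM hA π h1 h2 h3, ker_le h1 h2 h3 h4⟩
  · intro h0
    apply h5
    obtain ⟨c, hc⟩ := hrT
    rw [hc, Nat.cast_mul, h0, zero_mul]
  · intro x hx y
    exact ((Subgroup.mem_center_iff.1 (h2 hx)) y).symm

omit [IsSimpleGroup T] in
theorem le_of_ls {m r d : ℕ} (hrT : r ∣ Nat.card T) (h : PR m T) (hLS : Cfsg.Agent.H203.LS.LS.{0, 0, 0} r d T) :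
    d ≤ m := by
  obtain ⟨k, _, P, _, _, π, ρ, h1, h2, h3, h4, h5⟩ := h
  refine hLS P π h1 h2 h3 k ?_ m ρ h4
  intro h0
  apply h5
  obtain ⟨c, hc⟩ := hrT
  rw [hc, Nat.cast_mul, h0, zero_mul]

end bounds

/-! ### the 2-part -/

theorem two_mul_le (v : ℕ) : 2 * v ≤ 2 ^ v := by
  induction v with
  | zero => norm_num
  | succ v ih =>
    rcases Nat.eq_zero_or_pos v with rfl | h
    · norm_num
    · rw [pow_succ]
      omega

theorem val_le {j : ℕ} (hj : 1 ≤ j) : 2 * padicValNat 2 j ≤ j := by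
  have h1 : 2 ^ padicValNat 2 j ∣ j := pow_padicValNat_dvd
  exact (two_mul_le _).trans (Nat.le_of_dvd hj h1)

theorem val_pow {q : ℕ} (hq : 3 ≤ q) (hodd : Odd q) {i : ℕ} (hi : 1 ≤ i) :
    padicValNat 2 (q ^ (2 * i) - 1) = padicValNat 2 (q + 1) + padicValNat 2 (q - 1) + padicValNat 2 i := by
  obtain ⟨j, hj⟩ := hodd
  have h1 := padicValNat.pow_two_sub_pow (x := q) (y := 1) (n := 2 * i) (by omega) ⟨j, by omega⟩
    (by omega) (by omega) (even_two_mul i)
  rw [one_pow] at h1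
  have h2 : padicValNat 2 (2 * i) = 1 + padicValNat 2 i := by
    rw [padicValNat.mul (by norm_num) (by omega), padicValNat.self (by norm_num)]
  omega

theorem val_a {q : ℕ} (hq : 3 ≤ q) (hodd : Odd q) :
    2 * (padicValNat 2 (q + 1) + padicValNat 2 (q - 1)) ≤ q + 3 := by
  obtain ⟨j, hj⟩ := hodd
  have h1 : padicValNat 2 (q + 1) = 1 + padicValNat 2 (j + 1) := by
    rw [show q + 1 = 2 * (j + 1) by omega, padicValNat.mul (by norm_num) (by omega), padicValNat.self (by norm_num)]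
  have h2 : padicValNat 2 (q - 1) = 1 + padicValNat 2 j := by
    rw [show q - 1 = 2 * j by omega, padicValNat.mul (by norm_num) (by omega), padicValNat.self (by norm_num)]
  have h3 := val_le (j := j + 1) (by omega)
  have h4 := val_le (j := j) (by omega)
  rcases Nat.even_or_odd j with ⟨l, hl⟩ | ⟨l, hl⟩
  · have h5 : padicValNat 2 (j + 1) = 0 := padicValNat.eq_zero_of_not_dvd (by omega)
    omega
  · have h5 : padicValNat 2 j = 0 := padicValNat.eq_zero_of_not_dvd (by omega)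
    omega

theorem val_prod {q : ℕ} (hq : 3 ≤ q) (hodd : Odd q) (n : ℕ) :
    padicValNat 2 (∏ i ∈ Finset.range n, (q ^ (2 * (i + 1)) - 1)) =
      n * (padicValNat 2 (q + 1) + padicValNat 2 (q - 1)) + padicValNat 2 n.factorial := by
  have hpos : ∀ i, q ^ (2 * (i + 1)) - 1 ≠ 0 := fun i => by
    have : q ^ 1 ≤ q ^ (2 * (i + 1)) := Nat.pow_le_pow_right (by omega) (by omega)
    rw [pow_one] at this
    omega
  induction n with
  | zero => simp
  | succ n ih =>
    rw [Finset.prod_range_succ, padicValNat.mul (Finset.prod_ne_zero_iff.2 fun i _ => hpos i) (hpos n), ih,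
      val_pow hq hodd (by omega), Nat.factorial_succ, padicValNat.mul (by omega) (Nat.factorial_ne_zero n)]
    ring

theorem three_mul_le {f : ℕ} (hf : 1 ≤ f) {p : ℕ} (hp : 3 ≤ p) : 3 * f ≤ p ^ f := by
  have h1 : 3 * f ≤ 3 ^ f := by
    induction f, hf using Nat.le_induction with
    | base => norm_num
    | succ f hf ih => rw [pow_succ]; omega
  exact h1.trans (Nat.pow_le_pow_left hp f)

/-- the 2-part of `|Aut PSp_2n(q)|` -/
theorem v2_psp {F : Type} [Field F] [Fintype F] {p f n : ℕ} (hp : p.Prime) (hp2 : p ≠ 2) (hf : 1 ≤ f)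
    (hF : Fintype.card F = p ^ f) (hn : 2 ≤ n) :
    6 * v2 (Cfsg.PSp n F) + 12 ≤ 2 * p ^ f + 3 * n * p ^ f + 15 * n := by
  have hpf : Fact p.Prime := ⟨hp⟩
  have hodd : Odd (p ^ f) := (hp.odd_of_ne_two hp2).pow
  have hp3 : 3 ≤ p := by have := hp.two_le; omega
  have hq3 : 3 ≤ p ^ f := hp3.trans (Nat.le_self_pow (by omega) p)
  have h1 : Nat.card (MulAut (Cfsg.PSp n F)) =
      f * ((p ^ f) ^ (n ^ 2) * ∏ i ∈ Finset.range n, ((p ^ f) ^ (2 * (i + 1)) - 1)) := by
    rw [Cfsg.Agent.S0814.result p f hf hF n hn (fun _ => hq3), if_neg (fun h => hp2 h.2), one_mul,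
      ← Cfsg.Agent.H454.FinePsp.card_psp hF (by omega)]
    ring
  have hpos : ∀ i, (p ^ f) ^ (2 * (i + 1)) - 1 ≠ 0 := fun i => by
    have : (p ^ f) ^ 1 ≤ (p ^ f) ^ (2 * (i + 1)) := Nat.pow_le_pow_right (by omega) (by omega)
    rw [pow_one] at this
    omega
  have h2 : v2 (Cfsg.PSp n F) = padicValNat 2 f + (n * (padicValNat 2 (p ^ f + 1) + padicValNat 2 (p ^ f - 1)) +
      padicValNat 2 n.factorial) := by
    have h0 : padicValNat 2 ((p ^ f) ^ (n ^ 2)) = 0 := by
      apply padicValNat.eq_zero_of_not_dvd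
      rw [← even_iff_two_dvd, Nat.not_even_iff_odd]
      exact hodd.pow
    have hne : ∏ i ∈ Finset.range n, ((p ^ f) ^ (2 * (i + 1)) - 1) ≠ 0 := Finset.prod_ne_zero_iff.2 fun i _ => hpos i
    rw [v2, Nat.factorization_def _ Nat.prime_two, h1, padicValNat.mul (by omega) (mul_ne_zero (by positivity) hne),
      padicValNat.mul (by positivity) hne, h0, zero_add, val_prod hq3 hodd]
  have h3 := val_a hq3 hodd
  have h4 : padicValNat 2 n.factorial < n := padicValNat_factorial_lt_of_ne_zero 2 (by omega)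
  have h5 : padicValNat 2 f + 1 ≤ f := by
    have h6 : 2 ^ padicValNat 2 f ≤ f := Nat.le_of_dvd hf pow_padicValNat_dvd
    have h7 := Nat.lt_two_pow_self (n := padicValNat 2 f)
    omega
  have h6 := three_mul_le hf hp3
  have h7 : n * (2 * (padicValNat 2 (p ^ f + 1) + padicValNat 2 (p ^ f - 1))) ≤ n * (p ^ f + 3) :=
    Nat.mul_le_mul_left n h3
  rw [h2]
  nlinarith

theorem num {n q : ℕ} (hn : 2 ≤ n) (hq : 3 ≤ q) (h : n = 2 → 5 ≤ q) : 2 * (2 * q + 3 * n * q + 15 * n) + 9 ≤ 9 * q ^ n := by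
  rcases Nat.eq_or_lt_of_le hn with rfl | h3
  · have := h rfl
    nlinarith
  · clear h hn
    induction n, h3 using Nat.le_induction with
    | base =>
      have h1 : 9 * q ≤ q ^ 3 := by
        have h2 : 9 ≤ q ^ 2 := by nlinarith
        calc 9 * q ≤ q ^ 2 * q := Nat.mul_le_mul_right q h2
          _ = q ^ 3 := by ring
      show 2 * (2 * q + 3 * (2 + 1) * q + 15 * (2 + 1)) + 9 ≤ 9 * q ^ 3
      omega
    | succ n hn ih =>
      have h1 : 3 * (9 * q ^ n) ≤ q * (9 * q ^ n) := Nat.mul_le_mul_right _ hq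
      have h2 : 3 ≤ n := hn
      rw [pow_succ]
      nlinarith

/-- **`ALS` for `PSp_2n(q)`**, `q` odd. -/
theorem als_psp {F : Type} [Field F] [Fintype F] (hodd : Odd (Fintype.card F)) {n : ℕ} (hn : 2 ≤ n) :
    ALS (Cfsg.PSp n F) := by
  obtain ⟨p, hchar⟩ := CharP.exists F
  obtain ⟨k, hp, hF⟩ := FiniteField.card F p
  obtain ⟨f, hf, hkf⟩ : ∃ f : ℕ, 1 ≤ f ∧ (k : ℕ) = f := ⟨k, k.2, rfl⟩
  rw [hkf] at hF
  have hpf : Fact p.Prime := ⟨hp⟩
  have hp2 : p ≠ 2 := by
    rintro rfl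
    rw [hF, Nat.odd_pow_iff (by omega)] at hodd
    exact absurd hodd (by decide)
  have hp3 : 3 ≤ p := by have := hp.two_le; omega
  have hq3 : 3 ≤ p ^ f := hp3.trans (Nat.le_self_pow (by omega) p)
  have hs : IsSimpleGroup (Cfsg.PSp n F) := Cfsg.Agent.S0270.result n hn (fun h => by omega)
  have hrT : p ∣ Nat.card (Cfsg.PSp n F) :=
    Cfsg.Agent.H454.FinePsp.dvd_card hF (by omega) hp (dvd_pow_self p (by omega))
  have hM : Cfsg.HasCyclicSchurMultiplier (Cfsg.PSp n F) (Nat.gcd 2 (p ^ f - 1)) :=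
    Cfsg.Agent.S2092.result hF n hn (fun _ => hq3) (by omega)
  have hcop : (Nat.gcd 2 (p ^ f - 1)).Coprime p :=
    Nat.Coprime.coprime_dvd_left (Nat.gcd_dvd_left _ _) ((Nat.coprime_primes Nat.prime_two hp).2 (Ne.symm hp2))
  have hV := v2_psp hp hp2 hf hF hn
  have hqodd : Odd (p ^ f) := by rw [← hF]; exact hodd
  intro m hm
  have hd : ((p ^ f) ^ n - 1) / 2 ≤ m := by
    refine le_of_bd hrT hm hM ?_ fun K _ hK => ?_
    · rw [Nat.card_congr Multiplicative.toAdd, Nat.card_zmod]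
      exact hcop
    · exact Cfsg.Agent.H175.BdSp.bd_psp (F := K) hp hF (show 1 ≤ n by omega) hK (MulEquiv.refl _)
  obtain ⟨q, hq⟩ : ∃ q, q = p ^ f := ⟨_, rfl⟩
  rw [← hq] at hV hqodd hd hq3
  have hqn : Odd (q ^ n) := hqodd.pow
  have hle : q ^ n ≤ 2 * m + 1 := by
    obtain ⟨b, hb⟩ := hqn
    rw [hb] at hd ⊢
    omega
  have h9 : 9 ≤ q ^ n := by
    calc 9 = 3 ^ 2 := by norm_num
      _ ≤ q ^ 2 := Nat.pow_le_pow_left hq3 2
      _ ≤ q ^ n := Nat.pow_le_pow_right (by omega) hn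
  obtain ⟨c, hc⟩ := hqodd
  have hsmall : ∀ B : ℕ, B < 81 → q ^ n ≤ B → n ≤ 3 := by
    intro B hB hle
    by_contra hcon
    have h1 : 3 ^ 4 ≤ q ^ n := (Nat.pow_le_pow_left hq3 4).trans (Nat.pow_le_pow_right (by omega) (by omega))
    norm_num at h1
    omega
  refine ⟨fun h => by omega, fun h => ?_, fun h => ?_, fun h => ?_⟩
  · have h1 := hsmall 11 (by norm_num) (by omega)
    interval_cases n
    · have h2 : q < 5 := by nlinarith
      have h3 : q = 3 := by omega
      rw [h3] at hV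
      omega
    · have h2 : 3 ^ 3 ≤ q ^ 3 := Nat.pow_le_pow_left hq3 3
      norm_num at h2
      omega
  · by_cases h2 : n = 2 ∧ q = 3
    · obtain ⟨rfl, rfl⟩ := h2
      omega
    · have h3 := num (n := n) (q := q) hn hq3 (fun h4 => by
        have : q ≠ 3 := fun h5 => h2 ⟨h4, h5⟩
        omega)
      omega
  · have h1 := hsmall 55 (by norm_num) (by omega)
    interval_cases n
    · have h2 : q < 8 := by nlinarith
      omega
    · have h2 : q < 4 := by
        by_contra hcon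
        have h3 : 4 ^ 3 ≤ q ^ 3 := Nat.pow_le_pow_left (by omega) 3
        norm_num at h3
        omega
      omega

end Cfsg.Agent.H753.Hall
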